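import Cfsg.Agent.H307.GoodBasic
import Cfsg.Agent.S3993

set_option autoImplicit false

/-! # A group in which all centralizers of non-central elements are abelian of the same order is nilpotent -/

namespace Cfsg.Agent.H307.Good

open Subgroup

/-- the arithmetic of equal partitions -/
theorem arith {h1 h2 b1 b2 c1 c2 k : ℤ} (hb1 : 1 < b1) (hb2 : 1 < b2) (hk : 2 ≤ k)
    (hd : b1 * b2 ∣ h1 * h2) (hh : h1 * h2 = 1 + k * (b1 * b2 - 1))
    (e1 : h1 * c1 = 1 + k * (b1 - 1))
    (e2 : h2 * c2 = 1 + k * (b2 - 1)) : False := by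
  have hb : 1 < b1 * b2 := by nlinarith
  have d1 : h1 ∣ b1 * (b2 - 1) := by
    refine ⟨c1 * (b1 * b2 - 1) - h2 * (b1 - 1), ?_⟩
    linear_combination (b1 - 1) * hh - (b1 * b2 - 1) * e1
  have d2 : h2 ∣ b2 * (b1 - 1) := by
    refine ⟨c2 * (b1 * b2 - 1) - h1 * (b2 - 1), ?_⟩
    linear_combination (b2 - 1) * hh - (b1 * b2 - 1) * e2
  have d12 := mul_dvd_mul d1 d2
  have hpos : 0 < b1 * (b2 - 1) * (b2 * (b1 - 1)) :=
    mul_pos (mul_pos (by linarith) (by linarith)) (mul_pos (by linarith) (by linarith))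
  have hle := Int.le_of_dvd hpos d12
  have d3 : b1 * b2 ∣ k - 1 := by
    have : k - 1 = k * (b1 * b2) - h1 * h2 := by linear_combination hh
    rw [this]
    exact dvd_sub (dvd_mul_left _ _) hd
  have hk1 := Int.le_of_dvd (by linarith) d3
  have h4 : (b1 * b2 + 1) * (b1 * b2 - 1) ≤ k * (b1 * b2 - 1) :=
    mul_le_mul_of_nonneg_right (by linarith) (by linarith)
  have h5 : b1 * (b2 - 1) * (b2 * (b1 - 1)) < (b1 * b2) * (b1 * b2) := by
    have : b1 * (b2 - 1) * (b2 * (b1 - 1)) = (b1 * b2) * ((b1 - 1) * (b2 - 1)) := by ring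
    rw [this]
    refine mul_lt_mul_of_pos_left ?_ (by linarith)
    nlinarith
  nlinarith

section Tor

variable {X : Type*} [Group X]

/-- the number of elements of `D` with `x ^ n = 1` -/
noncomputable def tor (D : Subgroup X) (n : ℕ) : ℕ := Nat.card {x : X // x ∈ D ∧ x ^ n = 1}

variable [Finite X]

theorem tor_mul {D : Subgroup X} (hD : ∀ a ∈ D, ∀ b ∈ D, a * b = b * a) {n1 n2 : ℕ}
    (hc : n1.Coprime n2) (hx : ∀ x ∈ D, x ^ (n1 * n2) = 1) :
    tor D n1 * tor D n2 = Nat.card D := by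
  rw [tor, tor, ← Nat.card_prod]
  refine Nat.card_congr (Equiv.ofBijective
    (fun p : {x : X // x ∈ D ∧ x ^ n1 = 1} × {x : X // x ∈ D ∧ x ^ n2 = 1} =>
      (⟨(p.1 : X) * p.2, D.mul_mem p.1.2.1 p.2.2.1⟩ : D)) ⟨?_, ?_⟩)
  · rintro ⟨⟨a, ha, ha'⟩, ⟨b, hb, hb'⟩⟩ ⟨⟨a', ha1, ha1'⟩, ⟨b', hb1, hb1'⟩⟩ h
    have h : a * b = a' * b' := congrArg Subtype.val h
    have h2 : a'⁻¹ * a = b' * b⁻¹ := by
      rw [inv_mul_eq_iff_eq_mul, ← mul_assoc, ← h, mul_assoc, mul_inv_cancel, mul_one]
    have h3 : (a'⁻¹ * a) ^ n1 = 1 := by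
      have : Commute a'⁻¹ a := hD _ (D.inv_mem ha1) _ ha
      rw [this.mul_pow, inv_pow, ha1', ha', inv_one, one_mul]
    have h4 : (a'⁻¹ * a) ^ n2 = 1 := by
      have : Commute b' b⁻¹ := hD _ hb1 _ (D.inv_mem hb)
      rw [h2, this.mul_pow, inv_pow, hb1', hb', inv_one, one_mul]
    have h5 : orderOf (a'⁻¹ * a) = 1 :=
      Nat.eq_one_of_dvd_coprimes hc (orderOf_dvd_of_pow_eq_one h3) (orderOf_dvd_of_pow_eq_one h4)
    have h6 : a'⁻¹ * a = 1 := orderOf_eq_one_iff.1 h5
    have h7 : a = a' := by rw [inv_mul_eq_one] at h6; exact h6.symm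
    have h8 : b = b' := by
      rw [h7] at h
      exact mul_left_cancel h
    subst h7; subst h8; rfl
  · rintro ⟨x, hxD⟩
    have hbez := Nat.gcd_eq_gcd_ab n1 n2
    rw [Nat.coprime_iff_gcd_eq_one.1 hc] at hbez
    set u := Nat.gcdA n1 n2
    set v := Nat.gcdB n1 n2
    have hx1 := hx x hxD
    refine ⟨⟨⟨x ^ ((n2 : ℤ) * v), D.zpow_mem hxD _, ?_⟩, ⟨x ^ ((n1 : ℤ) * u), D.zpow_mem hxD _, ?_⟩⟩, ?_⟩
    · rw [← zpow_natCast, ← zpow_mul]
      have : (n2 : ℤ) * v * n1 = ((n1 * n2 : ℕ) : ℤ) * v := by push_cast; ring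
      rw [this, zpow_mul, zpow_natCast, hx1, one_zpow]
    · rw [← zpow_natCast, ← zpow_mul]
      have : (n1 : ℤ) * u * n2 = ((n1 * n2 : ℕ) : ℤ) * u := by push_cast; ring
      rw [this, zpow_mul, zpow_natCast, hx1, one_zpow]
    · apply Subtype.ext
      change x ^ ((n2 : ℤ) * v) * x ^ ((n1 : ℤ) * u) = x
      rw [← zpow_add, add_comm, ← hbez]
      simp

/-- the torsion as a subgroup, its order has only prime divisors of `n` -/
theorem tor_primes {D : Subgroup X} (hD : ∀ a ∈ D, ∀ b ∈ D, a * b = b * a) {n : ℕ} :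
    (∀ q : ℕ, q.Prime → q ∣ tor D n → q ∣ n) ∧ tor D n ∣ Nat.card D ∧ 0 < tor D n ∧
    ∀ E : Subgroup X, E ≤ D → tor E n ∣ tor D n := by
  let T : (E : Subgroup X) → E ≤ D → Subgroup X := fun E hE =>
    { carrier := {x | x ∈ E ∧ x ^ n = 1}
      mul_mem' := by
        rintro a b ⟨ha, ha'⟩ ⟨hb, hb'⟩
        have : Commute a b := hD _ (hE ha) _ (hE hb)
        exact ⟨E.mul_mem ha hb, by rw [this.mul_pow, ha', hb', one_mul]⟩
      one_mem' := ⟨E.one_mem, one_pow _⟩
      inv_mem' := by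
        rintro a ⟨ha, ha'⟩
        exact ⟨E.inv_mem ha, by rw [inv_pow, ha', inv_one]⟩ }
  have hT : ∀ E hE, tor E n = Nat.card (T E hE) := fun E hE => rfl
  refine ⟨?_, ?_, ?_, ?_⟩
  · intro q hq hqd
    have := Fact.mk hq
    rw [hT D le_rfl] at hqd
    obtain ⟨a, ha⟩ := exists_prime_orderOf_dvd_card' q hqd
    rw [← ha, ← Subgroup.orderOf_coe]
    exact orderOf_dvd_of_pow_eq_one a.2.2
  · rw [hT D le_rfl]
    exact Subgroup.card_dvd_of_le (fun x hx => hx.1)
  · rw [hT D le_rfl]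
    exact Nat.card_pos
  · intro E hE
    rw [hT D le_rfl, hT E hE]
    exact Subgroup.card_dvd_of_le (fun x hx => ⟨hE hx.1, hx.2⟩)

theorem tor_zero (D : Subgroup X) : tor D 0 = Nat.card D := by
  refine Nat.card_congr ⟨fun x => ⟨x.1, x.2.1⟩, fun x => ⟨x.1, x.2, pow_zero _⟩, fun _ => rfl, fun _ => rfl⟩

open scoped Classical in
/-- the set of centralizers of non-central elements -/
noncomputable def cens (X : Type*) [Group X] [Finite X] : Finset (Subgroup X) :=
  letI := Fintype.ofFinite X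
  (Finset.univ.filter (fun x : X => x ∉ center X)).image cen

theorem center_le_cen (x : X) : center X ≤ cen x := by
  intro z hz
  exact mem_cen.2 ((Subgroup.mem_center_iff.1 hz x).symm)

open scoped Classical in
theorem count {m n a : ℕ}
    (h : ∀ g : X, g ∉ center X → (∀ a ∈ cen g, ∀ b ∈ cen g, a * b = b * a) ∧ Nat.card (cen g) = m)
    (ha : ∀ g : X, g ∉ center X → tor (cen g) n = a) :
    tor (⊤ : Subgroup X) n = tor (center X) n + (cens X).card * (a - tor (center X) n) := by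
  letI := Fintype.ofFinite X
  have key : ∀ x : X, x ∉ center X → ∀ y : X, y ∉ center X → (cen y = cen x ↔ y ∈ cen x) := by
    intro x hx y hy
    constructor
    · intro h1
      rw [← h1]
      exact self_mem_cen y
    · intro h1
      have h2 : cen x ≤ cen y := fun g hg => mem_cen.2 ((h x hx).1 g hg y h1)
      exact (Subgroup.eq_of_le_of_card_ge h2 (by rw [(h x hx).2, (h y hy).2])).symm
  set W : Finset X := Finset.univ.filter (fun x : X => x ∉ center X ∧ x ^ n = 1) with hW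
  have h1 : tor (⊤ : Subgroup X) n = tor (center X) n + W.card := by
    have e1 : tor (⊤ : Subgroup X) n = (Finset.univ.filter (fun x : X => x ^ n = 1)).card := by
      rw [tor, Nat.card_eq_fintype_card, Fintype.card_subtype]
      congr 1
      ext x; simp
    have e2 : tor (center X) n = (Finset.univ.filter (fun x : X => x ∈ center X ∧ x ^ n = 1)).card := by
      rw [tor, Nat.card_eq_fintype_card, Fintype.card_subtype]
    rw [e1, e2, hW, ← Finset.card_union_of_disjoint]
    · congr 1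
      ext x
      simp only [Finset.mem_filter, Finset.mem_univ, true_and, Finset.mem_union]
      tauto
    · rw [Finset.disjoint_left]
      intro x hx hx'
      simp only [Finset.mem_filter, Finset.mem_univ, true_and] at hx hx'
      exact hx'.1 hx.1
  have h2 : W.card = ∑ D ∈ cens X, (W.filter (fun x => cen x = D)).card := by
    refine Finset.card_eq_sum_card_fiberwise ?_
    intro x hx
    have hx : x ∈ W := hx
    simp only [hW, Finset.mem_filter, Finset.mem_univ, true_and] at hx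
    rw [cens]
    refine Finset.mem_coe.2 (Finset.mem_image.2 ⟨x, ?_, rfl⟩)
    simp [hx.1]
  have h3 : ∀ D ∈ cens X, (W.filter (fun x => cen x = D)).card = a - tor (center X) n := by
    intro D hD
    rw [cens] at hD
    obtain ⟨g, hg, rfl⟩ := Finset.mem_image.1 hD
    simp only [Finset.mem_filter, Finset.mem_univ, true_and] at hg
    have e1 : tor (cen g) n = (Finset.univ.filter (fun x : X => x ∈ cen g ∧ x ^ n = 1)).card := by
      rw [tor, Nat.card_eq_fintype_card, Fintype.card_subtype]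
    have e2 : tor (center X) n = (Finset.univ.filter (fun x : X => x ∈ center X ∧ x ^ n = 1)).card := by
      rw [tor, Nat.card_eq_fintype_card, Fintype.card_subtype]
    have e3 : tor (cen g) n = tor (center X) n + (W.filter (fun x => cen x = cen g)).card := by
      rw [e1, e2, ← Finset.card_union_of_disjoint]
      · congr 1
        ext x
        simp only [Finset.mem_filter, Finset.mem_univ, true_and, Finset.mem_union, hW]
        constructor
        · rintro ⟨hx1, hx2⟩
          by_cases hxz : x ∈ center X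
          · exact Or.inl ⟨hxz, hx2⟩
          · exact Or.inr ⟨⟨hxz, hx2⟩, (key g hg x hxz).2 hx1⟩
        · rintro (⟨hx1, hx2⟩ | ⟨⟨hx1, hx2⟩, hx3⟩)
          · exact ⟨center_le_cen g hx1, hx2⟩
          · exact ⟨(key g hg x hx1).1 hx3, hx2⟩
      · rw [Finset.disjoint_left]
        intro x hx hx'
        simp only [Finset.mem_filter, Finset.mem_univ, true_and, hW] at hx hx'
        exact hx'.1.1 hx.1
    rw [ha g hg] at e3
    omega
  rw [h1, h2, Finset.sum_congr rfl h3, Finset.sum_const, smul_eq_mul]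

/-- equal abelian centralizers: `X / Z(X)` is an `r`-group. -/
theorem exists_prime_of_partition {m : ℕ}
    (h : ∀ g : X, g ∉ center X → (∀ a ∈ cen g, ∀ b ∈ cen g, a * b = b * a) ∧ Nat.card (cen g) = m) :
    ∃ r : ℕ, r.Prime ∧ ∀ x : X, ∃ j : ℕ, x ^ (r ^ j) ∈ center X := by
  by_cases hab : ∀ g : X, g ∈ center X
  · exact ⟨2, Nat.prime_two, fun x => ⟨0, hab _⟩⟩
  push Not at hab
  obtain ⟨g0, hg0⟩ := hab
  have hZpos : 0 < Nat.card (center X) := Nat.card_pos
  have hZm : Nat.card (center X) ∣ m := by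
    rw [← (h g0 hg0).2]; exact Subgroup.card_dvd_of_le (center_le_cen g0)
  have hZlt : Nat.card (center X) < m := by
    rw [← (h g0 hg0).2]
    refine lt_of_le_of_ne (Subgroup.card_le_of_le (center_le_cen g0)) (fun he => hg0 ?_)
    have := Subgroup.eq_of_le_of_card_ge (center_le_cen g0) he.ge
    rw [this]
    exact self_mem_cen g0
  obtain ⟨b, hb⟩ := hZm
  have hb1 : 1 < b := by
    rcases b with _ | _ | b
    · omega
    · omega
    · omega
  obtain ⟨r, hr, hrb⟩ := Nat.exists_prime_and_dvd hb1.ne'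
  refine ⟨r, hr, ?_⟩
  set N := Nat.card X with hN
  have hNpos : 0 < N := Nat.card_pos
  set n1 := r ^ (N.factorization r) with hn1
  set n2 := N / n1 with hn2
  have hn1N : n1 ∣ N := Nat.ordProj_dvd _ _
  have hn12 : n1 * n2 = N := Nat.mul_div_cancel' hn1N
  have hcop : n1.Coprime n2 := Nat.Coprime.pow_left _ (Nat.coprime_ordCompl hr hNpos.ne')
  have hpow : ∀ x : X, x ^ (n1 * n2) = 1 := by
    intro x; rw [hn12]; exact pow_card_eq_one'
  -- the orders of the two parts
  have hZab : ∀ a ∈ center X, ∀ b ∈ center X, a * b = b * a := fun a ha b hb =>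
    (Subgroup.mem_center_iff.1 ha b).symm
  set z1 := tor (center X) n1 with hz1
  set z2 := tor (center X) n2 with hz2
  have hz12 : z1 * z2 = Nat.card (center X) := tor_mul hZab hcop (fun x _ => hpow x)
  obtain ⟨pz1, dz1, posz1, -⟩ := tor_primes hZab (n := n1)
  obtain ⟨pz2, dz2, posz2, -⟩ := tor_primes hZab (n := n2)
  set a1 := tor (cen g0) n1 with ha1
  set a2 := tor (cen g0) n2 with ha2
  obtain ⟨pa1, da1, posa1, sa1⟩ := tor_primes (h g0 hg0).1 (n := n1)
  obtain ⟨pa2, da2, posa2, sa2⟩ := tor_primes (h g0 hg0).1 (n := n2)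
  have ha12 : a1 * a2 = m := by
    rw [← (h g0 hg0).2]; exact tor_mul (h g0 hg0).1 hcop (fun x _ => hpow x)
  -- coprimality from primes
  have hcp : ∀ u v : ℕ, (∀ q : ℕ, q.Prime → q ∣ u → q ∣ n1) → (∀ q : ℕ, q.Prime → q ∣ v → q ∣ n2) →
      u.Coprime v := by
    intro u v hu hv
    refine Nat.Coprime.symm (Nat.Coprime.symm (Nat.coprime_of_dvd ?_))
    intro q hq hqu hqv
    have := Nat.dvd_gcd (hu q hq hqu) (hv q hq hqv)
    rw [Nat.coprime_iff_gcd_eq_one.1 hcop] at this
    exact hq.one_lt.ne' (Nat.dvd_one.1 this)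
  have hconst : ∀ g : X, g ∉ center X → tor (cen g) n1 = a1 ∧ tor (cen g) n2 = a2 := by
    intro g hg
    obtain ⟨p1, d1, -, -⟩ := tor_primes (h g hg).1 (n := n1)
    obtain ⟨p2, d2, -, -⟩ := tor_primes (h g hg).1 (n := n2)
    have hm : tor (cen g) n1 * tor (cen g) n2 = m := by
      rw [← (h g hg).2]; exact tor_mul (h g hg).1 hcop (fun x _ => hpow x)
    have e : tor (cen g) n1 * tor (cen g) n2 = a1 * a2 := by rw [hm, ha12]
    have e1 : tor (cen g) n1 ∣ a1 := (hcp _ _ p1 pa2).dvd_of_dvd_mul_right (e ▸ dvd_mul_right _ _)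
    have e2 : a1 ∣ tor (cen g) n1 := (hcp _ _ pa1 p2).dvd_of_dvd_mul_right (e ▸ dvd_mul_right _ _)
    have e3 : tor (cen g) n2 ∣ a2 :=
      ((hcp _ _ pa1 p2).symm).dvd_of_dvd_mul_left (e ▸ dvd_mul_left _ _)
    have e4 : a2 ∣ tor (cen g) n2 :=
      ((hcp _ _ p1 pa2).symm).dvd_of_dvd_mul_left (e ▸ dvd_mul_left _ _)
    exact ⟨Nat.dvd_antisymm e1 e2, Nat.dvd_antisymm e3 e4⟩
  obtain ⟨b1, hb1'⟩ : z1 ∣ a1 := sa1 _ (center_le_cen g0)
  obtain ⟨b2, hb2'⟩ : z2 ∣ a2 := sa2 _ (center_le_cen g0)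
  have hZN : Nat.card (center X) ∣ N := Subgroup.card_subgroup_dvd_card _
  obtain ⟨h1, hh1⟩ : z1 ∣ n1 := by
    have : z1 ∣ n1 * n2 := by rw [hn12]; exact (hz12 ▸ dvd_mul_right z1 z2 : z1 ∣ Nat.card (center X)).trans hZN
    exact (hcp z1 n2 pz1 (fun q _ h => h)).dvd_of_dvd_mul_right this
  obtain ⟨h2, hh2⟩ : z2 ∣ n2 := by
    have : z2 ∣ n1 * n2 := by rw [hn12]; exact (hz12 ▸ dvd_mul_left z2 z1 : z2 ∣ Nat.card (center X)).trans hZN
    exact ((hcp n1 z2 (fun q _ h => h) pz2).symm).dvd_of_dvd_mul_left this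
  set k := (cens X).card with hk
  have c0 := count (n := 0) (a := m) h (fun g hg => by rw [tor_zero, (h g hg).2])
  have c1 := count (n := n1) (a := a1) h (fun g hg => (hconst g hg).1)
  have c2 := count (n := n2) (a := a2) h (fun g hg => (hconst g hg).2)
  rw [tor_zero, tor_zero, Subgroup.card_top] at c0
  have htop : ∀ n : ℕ, tor (⊤ : Subgroup X) n = Nat.card {g : X // g ^ n = 1} := by
    intro n
    exact Nat.card_congr (Equiv.subtypeEquivRight (fun x => by simp))
  obtain ⟨u1, hu1⟩ : n1 ∣ tor (⊤ : Subgroup X) n1 := by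
    rw [htop]; exact S3993.result n1 hn1N
  obtain ⟨u2, hu2⟩ : n2 ∣ tor (⊤ : Subgroup X) n2 := by
    rw [htop]; exact S3993.result n2 (Dvd.intro_left _ hn12)
  have hb1pos : 0 < b1 := Nat.pos_of_mul_pos_left (hb1' ▸ posa1 : 0 < z1 * b1)
  have hb2pos : 0 < b2 := Nat.pos_of_mul_pos_left (hb2' ▸ posa2 : 0 < z2 * b2)
  have hbb : b = b1 * b2 := by
    have : Nat.card (center X) * b = Nat.card (center X) * (b1 * b2) := by
      rw [← hb, ← ha12, hb1', hb2', ← hz12]; ring
    exact Nat.eq_of_mul_eq_mul_left hZpos this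
  have sub1 : a1 - z1 = z1 * (b1 - 1) := by rw [hb1', Nat.mul_sub, mul_one]
  have sub2 : a2 - z2 = z2 * (b2 - 1) := by rw [hb2', Nat.mul_sub, mul_one]
  have sub0 : m - Nat.card (center X) = (z1 * z2) * (b1 * b2 - 1) := by
    rw [hb, hbb, ← hz12, Nat.mul_sub, mul_one]
  have e1 : h1 * u1 = 1 + k * (b1 - 1) := by
    have : z1 * (h1 * u1) = z1 * (1 + k * (b1 - 1)) := by
      calc z1 * (h1 * u1) = n1 * u1 := by rw [hh1]; ring
        _ = z1 + k * (a1 - z1) := by rw [← hu1, c1]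
        _ = z1 * (1 + k * (b1 - 1)) := by rw [sub1]; ring
    exact Nat.eq_of_mul_eq_mul_left posz1 this
  have e2 : h2 * u2 = 1 + k * (b2 - 1) := by
    have : z2 * (h2 * u2) = z2 * (1 + k * (b2 - 1)) := by
      calc z2 * (h2 * u2) = n2 * u2 := by rw [hh2]; ring
        _ = z2 + k * (a2 - z2) := by rw [← hu2, c2]
        _ = z2 * (1 + k * (b2 - 1)) := by rw [sub2]; ring
    exact Nat.eq_of_mul_eq_mul_left posz2 this
  have e0 : h1 * h2 = 1 + k * (b1 * b2 - 1) := by
    have : (z1 * z2) * (h1 * h2) = (z1 * z2) * (1 + k * (b1 * b2 - 1)) := by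
      calc (z1 * z2) * (h1 * h2) = n1 * n2 := by rw [hh1, hh2]; ring
        _ = N := hn12
        _ = Nat.card (center X) + k * (m - Nat.card (center X)) := c0
        _ = (z1 * z2) * (1 + k * (b1 * b2 - 1)) := by rw [sub0, ← hz12]; ring
    exact Nat.eq_of_mul_eq_mul_left (Nat.mul_pos posz1 posz2) this
  have hmN : m ∣ N := by rw [← (h g0 hg0).2]; exact Subgroup.card_subgroup_dvd_card _
  have hd : b1 * b2 ∣ h1 * h2 := by
    have : (z1 * z2) * (b1 * b2) ∣ (z1 * z2) * (h1 * h2) := by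
      have t1 : (z1 * z2) * (b1 * b2) = m := by rw [hb, hbb, hz12]
      have t2 : (z1 * z2) * (h1 * h2) = N := by rw [← hn12, hh1, hh2]; ring
      rw [t1, t2]; exact hmN
    exact Nat.dvd_of_mul_dvd_mul_left (Nat.mul_pos posz1 posz2) this
  have hk2 : 2 ≤ k := by
    by_contra hlt
    have hlt : k ≤ 1 := by omega
    have h5 : N ≤ m := by
      rw [hN, c0]
      calc Nat.card (center X) + k * (m - Nat.card (center X))
          ≤ Nat.card (center X) + 1 * (m - Nat.card (center X)) := by gcongr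
        _ = m := by omega
    have h6 : cen g0 = ⊤ := by
      rw [← Subgroup.card_eq_iff_eq_top, (h g0 hg0).2]
      exact le_antisymm (Nat.le_of_dvd hNpos hmN) h5
    apply hg0
    rw [Subgroup.mem_center_iff]
    intro g
    exact mem_cen.1 (h6 ▸ Subgroup.mem_top g)
  have hor : b1 = 1 ∨ b2 = 1 := by
    by_contra hcon
    push Not at hcon
    refine arith (h1 := h1) (h2 := h2) (b1 := b1) (b2 := b2) (c1 := u1) (c2 := u2) (k := k)
      (by omega) (by omega) (by exact_mod_cast hk2) (by exact_mod_cast hd) ?_ ?_ ?_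
    · have := congrArg (Nat.cast : ℕ → ℤ) e0
      push_cast [Nat.cast_sub (Nat.mul_pos hb1pos hb2pos : 1 ≤ b1 * b2)] at this
      exact this
    · have := congrArg (Nat.cast : ℕ → ℤ) e1
      push_cast [Nat.cast_sub (hb1pos : 1 ≤ b1)] at this
      exact this
    · have := congrArg (Nat.cast : ℕ → ℤ) e2
      push_cast [Nat.cast_sub (hb2pos : 1 ≤ b2)] at this
      exact this
  -- `r ∣ b1`, so `b2 = 1`
  have hq1 : ∀ q : ℕ, q.Prime → q ∣ b1 → q = r := by
    intro q hq hqb
    have h5 := pa1 q hq (by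
      change q ∣ a1
      rw [hb1']; exact dvd_mul_of_dvd_right hqb z1)
    exact (Nat.prime_dvd_prime_iff_eq hq hr).1 (hq.dvd_of_dvd_pow h5)
  have hr2 : ¬ r ∣ b2 := by
    intro hrb2
    have h5 := pa2 r hr (by
      change r ∣ a2
      rw [hb2']; exact dvd_mul_of_dvd_right hrb2 z2)
    exact (Nat.Prime.coprime_iff_not_dvd hr).1 (Nat.coprime_ordCompl hr hNpos.ne') h5
  have hb2one : b2 = 1 := by
    rcases hor with h5 | h5
    · exfalso
      rw [hbb, h5, one_mul] at hrb
      exact hr2 hrb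
    · exact h5
  obtain ⟨j, hj⟩ : ∃ j, b = r ^ j := by
    refine ⟨_, Nat.eq_prime_pow_of_unique_prime_dvd (by omega) ?_⟩
    intro d hd hdb
    rw [hbb, hb2one, mul_one] at hdb
    exact hq1 d hd hdb
  intro x
  by_cases hx : x ∈ center X
  · exact ⟨0, by simpa using hx⟩
  refine ⟨j, ?_⟩
  have hidx : ((center X).subgroupOf (cen x)).index = r ^ j := by
    have h5 := Subgroup.card_mul_index ((center X).subgroupOf (cen x))
    have h6 : Nat.card ((center X).subgroupOf (cen x)) = Nat.card (center X) :=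
      Nat.card_congr (Subgroup.subgroupOfEquivOfLe (center_le_cen x)).toEquiv
    rw [h6, (h x hx).2, hb, hj] at h5
    exact Nat.eq_of_mul_eq_mul_left hZpos h5
  have hn : ((center X).subgroupOf (cen x)).Normal := inferInstance
  have h7 := Subgroup.pow_index_mem ((center X).subgroupOf (cen x)) (⟨x, self_mem_cen x⟩ : cen x)
  rw [hidx] at h7
  exact h7

end Tor

end Cfsg.Agent.H307.Good
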