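import Cfsg.Agent.H530.Cop
import Cfsg.Agent.H127.TwFInv
import Cfsg.Agent.S1068

/-!
# No coprime class sizes: the groups `²F₄(q)` (helper307, for S4158)

The class of a central root element `z` has odd size; by `|C(z)| = |C(z) ∩ B| (1 + q²)`, `|B : C(z) ∩ B| = q - 1`
its size is divisible by all odd primes dividing `|G|`. So a class of coprime size has 2-power size.
-/

set_option autoImplicit false
set_option linter.unusedSectionVars false

namespace Cfsg.Agent.H307.TwFNoCop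

open Subgroup Cfsg.Lie
open Cfsg.Agent.SplitTwo Cfsg.Agent.SplitTwo.ZS Cfsg.Agent.TitsThree.RankTwoZ Cfsg.Agent.KFacts.TwF4
open Cfsg.Agent.KFacts.TwF4.Arc Cfsg.Agent.KFacts.TwF4.SylU Cfsg.Agent.H127.TwFInv
open Cfsg.Agent.H530.Cop

universe u

section

variable {F : Type*} [Field F] [Finite F] {σ : F →+* F} {G : Type u} [Group G] [Finite G] (S : Full σ G)

/-- `B = U T` -/
def B : Subgroup G := J S.XZ 1 8 ⊔ S.T

omit [Finite F] [Finite G] in
theorem U_le_PL : J S.XZ 1 8 ≤ S.PL := J_mono (by norm_num) (by norm_num)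

/-- `|B| = (q - 1) |B ∩ C(z)|` -/
theorem card_B : Nat.card ↥(B S) = (Nat.card F - 1) * Nat.card ↥(S.PL ⊓ B S) := by
  classical
  have hz1 : S.e 2 0 1 ≠ 1 := fun h => one_ne_zero (S.e_eq_one h).2
  have hC : ∀ g : G, g ∈ S.PL ↔ g * S.e 2 0 1 = S.e 2 0 1 * g := by
    intro g
    rw [← S.centralizer_z ⟨1, rfl⟩ hz1, mem_cent]
  let φ : ↥(B S) →* MulAut G := MulAut.conj.comp (B S).subtype
  let _ : MulAction ↥(B S) G := MulAction.compHom G φ
  have hsm : ∀ (b : ↥(B S)) (g : G), b • g = (b : G) * g * (b : G)⁻¹ := fun _ _ => rfl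
  rw [← Nat.card_congr (MulAction.orbitProdStabilizerEquivGroup ↥(B S) (S.e 2 0 1)), Nat.card_prod]
  congr 1
  · rw [← Nat.card_units]
    symm
    refine Nat.card_congr (Equiv.ofBijective (fun u : Fˣ => (⟨S.e 2 0 (u : F), ?_⟩ :
      MulAction.orbit ↥(B S) (S.e 2 0 1))) ⟨?_, ?_⟩)
    · obtain ⟨t, ht, he⟩ := S.T_trans (u := 1) (v := (u : F)) one_ne_zero u.ne_zero
      exact ⟨⟨t, (le_sup_right : S.T ≤ B S) ht⟩, he⟩
    · intro u v huv
      have h1 : S.e 2 0 (u : F) = S.e 2 0 (v : F) := congrArg Subtype.val huv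
      exact Units.ext (S.injE 2 _ _ _ _ h1).2
    · rintro ⟨_, b, rfl⟩
      obtain ⟨u, hu, t, ht, hb⟩ := form_BT S b.2
      obtain ⟨v, hv⟩ : t * S.e 2 0 1 * t⁻¹ ∈ S.Zc 2 := S.T_conj_Zc ht ⟨1, rfl⟩
      have hv' : S.e 2 0 v = t * S.e 2 0 1 * t⁻¹ := hv
      have hv0 : v ≠ 0 := by
        rintro rfl
        rw [S.e_zero] at hv'
        apply hz1
        have h3 : S.e 2 0 1 = t⁻¹ * (t * S.e 2 0 1 * t⁻¹) * t := by group
        rw [h3, ← hv']
        group
      refine ⟨Units.mk0 v hv0, Subtype.ext ?_⟩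
      show S.e 2 0 v = (b : G) * S.e 2 0 1 * (b : G)⁻¹
      have h4 : u * S.e 2 0 v = S.e 2 0 v * u := S.comm_PL (U_le_PL S hu) ⟨v, rfl⟩
      rw [hb, show u * t * S.e 2 0 1 * (u * t)⁻¹ = u * (t * S.e 2 0 1 * t⁻¹) * u⁻¹ by group, ← hv', h4]
      group
  · refine Nat.card_congr ⟨fun b => ⟨b.1.1, ?_, b.1.2⟩, fun b => ⟨⟨b.1, b.2.2⟩, ?_⟩, fun _ => rfl, fun _ => rfl⟩
    · refine (hC _).2 ?_
      have h1 : (b.1 : G) * S.e 2 0 1 * (b.1 : G)⁻¹ = S.e 2 0 1 := b.2
      rwa [mul_inv_eq_iff_eq_mul] at h1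
    · rw [MulAction.mem_stabilizer_iff, hsm, mul_inv_eq_iff_eq_mul]
      exact (hC _).1 b.2.1

theorem noCop_full [IsSimpleGroup G] (hna : ¬ IsMulCommutative G) (hF : ∃ c : Fˣ, c ≠ 1) (hR : S.R.p = 2)
    (hq : ∀ k : ℕ, Nat.card G = k * (1 + Nat.card F * Nat.card F) → ∀ t : ℕ, t.Prime → t ∣ Nat.card G → t ∣ k) :
    NoCop G := by
  obtain ⟨P, hP⟩ := exists_sylow S hF hR
  refine noCop_of_char hna Nat.prime_two (J S.XZ 1 8) (hP ▸ P.2) ?_
  intro x y hx hy _ hc _ hU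
  -- `x` is a central root element
  have hx1 : x ≠ 1 := by
    rintro rfl
    rw [orderOf_one] at hx
    exact Nat.not_prime_one hx
  have hy1 : y ≠ 1 := by
    rintro rfl
    rw [orderOf_one] at hy
    exact Nat.not_prime_one hy
  have hxZ : x ∈ S.Zc 2 := by
    rw [← S.centralizer_Q]
    intro u hu
    exact hU u (J_mono (by norm_num) (by norm_num) hu)
  have hcx : ci x = S.PL.index := by
    rw [ci, S.centralizer_z hxZ hx1]
  -- the arithmetic
  have e1 : S.PL.index * Nat.card S.PL = Nat.card G := index_mul_card _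
  have e2 : Nat.card S.PL = Nat.card ↥(S.PL ⊓ B S) * (1 + Nat.card F * Nat.card F) := card_PL S
  have e3 : (B S).index * Nat.card (B S) = Nat.card G := index_mul_card _
  have e4 := card_B S
  have hpos : 0 < Nat.card ↥(S.PL ⊓ B S) := Nat.card_pos
  have key : ∀ t : ℕ, t.Prime → t ≠ 2 → t ∣ Nat.card G → t ∣ ci x := by
    intro t ht ht2 htG
    rw [hcx]
    by_cases htq : t ∣ Nat.card F - 1
    · have h1 : S.PL.index * (1 + Nat.card F * Nat.card F) = (B S).index * (Nat.card F - 1) := by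
        refine Nat.eq_of_mul_eq_mul_right hpos ?_
        rw [e4, ← mul_assoc] at e3
        rw [e2] at e1
        rw [e3, ← e1]
        ring
      have h2 : t ∣ S.PL.index * (1 + Nat.card F * Nat.card F) := by
        rw [h1]
        exact htq.mul_left _
      refine (ht.dvd_mul.1 h2).resolve_right fun h3 => ht2 ?_
      obtain ⟨k, hk⟩ : ∃ k, Nat.card F = k + 1 := ⟨Nat.card F - 1, by
        have : 0 < Nat.card F := Nat.card_pos
        omega⟩
      rw [hk, Nat.add_sub_cancel] at htq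
      rw [hk, show 1 + (k + 1) * (k + 1) = k * (k + 2) + 2 by ring] at h3
      exact (Nat.prime_dvd_prime_iff_eq ht Nat.prime_two).1 ((Nat.dvd_add_right (htq.mul_right _)).1 h3)
    · have h1 := hq (S.PL.index * Nat.card ↥(S.PL ⊓ B S)) (by rw [← e1, e2, mul_assoc]) t ht htG
      refine (ht.dvd_mul.1 h1).resolve_right fun h3 => htq ?_
      exact prime_BT S hR ht ht2 (h3.trans (card_dvd_of_le inf_le_right))
  -- the class of `y` has 2-power size
  have h1 : ∀ t : ℕ, t.Prime → t ∣ ci y → t = 2 := by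
    intro t ht hty
    by_contra hne
    have h3 := Nat.dvd_gcd (key t ht hne (hty.trans (ci_dvd_card y))) hty
    rw [hc] at h3
    exact ht.one_lt.ne' (Nat.dvd_one.1 h3)
  exact ne_prime_pow hna hy1 Nat.prime_two
    (Nat.eq_prime_pow_of_unique_prime_dvd (ci_ne_zero y) (fun {t} ht htd => h1 t ht htd))

end

/-- `²F₄(q)` -/
theorem noCop_TF4 {K : Type} [Field K] [Fintype K] {m : ℕ} (hm : 1 ≤ m) (hK : Fintype.card K = 2 ^ (2 * m + 1))
    [IsSimpleGroup ↥(twistedF4 K (2 ^ m))] (hna : ¬ IsMulCommutative ↥(twistedF4 K (2 ^ m))) :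
    NoCop ↥(twistedF4 K (2 ^ m)) := by
  classical
  obtain ⟨φ, hφ⟩ := Cfsg.Agent.ChevalleyStructure.TwF4.TwistedFix.exists_rln hK
  have h2 := Cfsg.Agent.ChevalleyStructure.TwF4.Twisted.charP_two hK
  have hfin : Finite ↥(twistedF4 K (2 ^ m)) := inferInstance
  have h8 : 2 < Fintype.card K := by
    rw [hK]
    calc 2 < 2 ^ 3 := by norm_num
      _ ≤ 2 ^ (2 * m + 1) := Nat.pow_le_pow_right (by norm_num) (by omega)
  have hU : ∃ c : Kˣ, c ≠ 1 := by
    have h1 : 1 < Nat.card Kˣ := by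
      rw [Nat.card_units, Nat.card_eq_fintype_card]
      omega
    have := Finite.one_lt_card_iff_nontrivial.1 h1
    exact exists_ne 1
  refine noCop_full (Cfsg.Agent.KFacts.TwF4.Inst.full hK hφ) hna hU rfl ?_
  intro k hk t ht htG
  have hcard := Cfsg.Agent.S1068.result hK
  have hcK : Nat.card K = 2 ^ (2 * m + 1) := by rw [Nat.card_eq_fintype_card, hK]
  rw [hcK] at hk
  set q : ℕ := 2 ^ (2 * m + 1) with hq
  have hq2 : 2 < q := by rw [← hK]; exact h8
  obtain ⟨a, ha⟩ : ∃ a, q = a + 1 := ⟨q - 1, by omega⟩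
  have h4 : q ^ 4 - 1 = (1 + q * q) * (q * q - 1) := by
    have h5 : 1 ≤ q * q := Nat.mul_pos (by omega) (by omega)
    have h6 : 1 ≤ q ^ 4 := Nat.one_le_pow _ _ (by omega)
    zify [h5, h6]
    ring
  have h66 : q ^ 6 + 1 = (1 + q * q) * (q ^ 4 + 1 - q ^ 2) := by
    have h5 : q ^ 2 ≤ q ^ 4 + 1 := (Nat.pow_le_pow_right (by omega) (by norm_num)).trans (Nat.le_succ _)
    zify [h5]
    ring
  have hpos : 0 < 1 + q * q := by positivity
  have hk2 : k = q ^ 12 * (q - 1) * (q ^ 3 + 1) * (q ^ 4 - 1) * (q ^ 4 + 1 - q ^ 2) := by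
    refine Nat.eq_of_mul_eq_mul_right hpos ?_
    rw [← hk, hcard, h66]
    ring
  have hmul : Nat.card ↥(twistedF4 K (2 ^ m)) = q ^ 12 * (q - 1) * (q ^ 3 + 1) * (q ^ 4 - 1) *
      (q ^ 4 + 1 - q ^ 2) * (1 + q * q) := by
    rw [hcard, h66]
    ring
  rw [hmul, ← hk2] at htG
  refine (ht.dvd_mul.1 htG).elim id fun h => ?_
  rw [hk2, h4]
  exact ((h.mul_right _).mul_left _).mul_right _

end Cfsg.Agent.H307.TwFNoCop
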